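import Mathlib
import Cfsg.Agent.H105.SzSp8
import Cfsg.Agent.H27.AH.Defs

/-!
# S2451 (helper27): `PSp_2m(2)`, `m ≥ 3`, products of two classes, part 1: the trace and quadratic forms

`P2 B a b` : all products of `a` with a conjugate of `b` are 2-elements.
-/

set_option autoImplicit false
set_option linter.unusedSectionVars false

namespace Cfsg.Agent.H27.AH.SpTwo

open Module Cfsg.Agent.H955 Cfsg.Agent.H105.Sz Cfsg.Agent.H105.SzSp

universe u v

variable {F : Type u} {V : Type v} [Field F] [AddCommGroup V] [Module F V] [FiniteDimensional F V]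
  {B : LinearMap.BilinForm F V} {a b : V ≃ₗ[F] V}

/-- all products of `a` with conjugates of `b` are 2-elements -/
structure P2 (B : LinearMap.BilinForm F V) (a b : V ≃ₗ[F] V) : Prop where
  ha : a ∈ IsoB B
  hb : b ∈ IsoB B
  pow : ∀ g ∈ IsoB B, ∃ k : ℕ, (a * (g * b * g⁻¹)) ^ 2 ^ k = 1

theorem P2.conj (h : P2 B a b) {g : V ≃ₗ[F] V} (hg : g ∈ IsoB B) : P2 B a (g * b * g⁻¹) := by
  refine ⟨h.ha, mul_mem (mul_mem hg h.hb) (inv_mem hg), fun x hx => ?_⟩
  obtain ⟨k, hk⟩ := h.pow (x * g) (mul_mem hx hg)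
  refine ⟨k, ?_⟩
  have e : a * (x * (g * b * g⁻¹) * x⁻¹) = a * (x * g * b * (x * g)⁻¹) := by group
  rw [e, hk]

theorem P2.symm (h : P2 B a b) : P2 B b a := by
  refine ⟨h.hb, h.ha, fun g hg => ?_⟩
  obtain ⟨k, hk⟩ := h.pow g⁻¹ (inv_mem hg)
  refine ⟨k, ?_⟩
  have e : b * (g * a * g⁻¹) = (g * a⁻¹) * (a * (g⁻¹ * b * g⁻¹⁻¹)) * (g * a⁻¹)⁻¹ := by group
  rw [e, conj_pow, hk, mul_one, mul_inv_cancel]

/-- the trace of a 2-element -/
theorem trace_two (h2 : (2 : F) = 0) {z : V ≃ₗ[F] V} {k : ℕ} (hz : z ^ 2 ^ k = 1) :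
    LinearMap.trace F V (z : V →ₗ[F] V) = (finrank F V : F) := by
  set y : Module.End F V := (z : V →ₗ[F] V) with hy
  have hpow : ∀ n : ℕ, y ^ n = ((z ^ n : V ≃ₗ[F] V) : V →ₗ[F] V) := by
    intro n
    induction n with
    | zero => rfl
    | succ n ih => rw [pow_succ, pow_succ, ih]; rfl
  have hy1 : y ^ 2 ^ k = 1 := by rw [hpow, hz]; rfl
  have h2' : (2 : Module.End F V) = 0 := by
    ext v
    change (2 : Module.End F V) v = 0
    have : (2 : Module.End F V) v = (2 : F) • v := by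
      have e : (2 : Module.End F V) = 1 + 1 := by norm_num
      rw [e]
      change v + v = _
      rw [two_smul]
    rw [this, h2, zero_smul]
  have hsq : ∀ n : ℕ, (y - 1) ^ 2 ^ n = y ^ 2 ^ n - 1 := by
    intro n
    induction n with
    | zero => simp
    | succ n ih =>
      rw [pow_succ 2 n, pow_mul, ih, pow_mul]
      have e : (y ^ 2 ^ n - 1) ^ 2 = (y ^ 2 ^ n) ^ 2 - 1 - 2 * (y ^ 2 ^ n - 1) := by
        noncomm_ring
      rw [e, h2', zero_mul, sub_zero]
  have hnil : IsNilpotent (y - 1) := ⟨2 ^ k, by rw [hsq, hy1, sub_self]⟩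
  have h3 := (LinearMap.isNilpotent_trace_of_isNilpotent hnil).eq_zero
  rw [map_sub] at h3
  have h4 : LinearMap.trace F V (1 : Module.End F V) = (finrank F V : F) := LinearMap.trace_one F V
  rw [h4] at h3
  exact sub_eq_zero.mp h3

/-- the trace of `a t b t⁻¹` for a transvection `t` -/
theorem trace_tv' (h : IsSp B) (a m : V →ₗ[F] V) (v : V) :
    LinearMap.trace F V (a ∘ₗ (tv h v 1 : V →ₗ[F] V) ∘ₗ m ∘ₗ ((tv h v 1)⁻¹ : V ≃ₗ[F] V)) =
      LinearMap.trace F V (a ∘ₗ m) + (B v (m (a v)) - B v (a (m v))) - B v (m v) * B v (a v) := by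
  have e : a ∘ₗ (tv h v 1 : V →ₗ[F] V) ∘ₗ m ∘ₗ ((tv h v 1)⁻¹ : V ≃ₗ[F] V) =
      a ∘ₗ m + (B v ∘ₗ m).smulRight (a v) - (B v).smulRight (a (m v)) -
        (B v (m v)) • ((B v).smulRight (a v)) := by
    ext x
    change a (tv h v 1 (m ((tv h v 1)⁻¹ x))) = _
    rw [tv_inv_apply, tv_apply]
    simp only [LinearMap.comp_apply, LinearMap.add_apply, LinearMap.sub_apply, LinearMap.smul_apply,
      LinearMap.smulRight_apply, map_sub, map_add, map_smul]
    simp only [smul_eq_mul]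
    module
  rw [e, map_sub, map_sub, map_add, map_smul, LinearMap.trace_smulRight,
    LinearMap.trace_smulRight, LinearMap.trace_smulRight]
  simp only [LinearMap.comp_apply, smul_eq_mul]
  ring

/-- **The trace identity.** -/
theorem P2.key (h : IsSp B) (h2 : (2 : F) = 0) (hab : P2 B a b) (v : V) :
    B v (a v) * B v (b v) = B v (a (b v)) + B v (b (a v)) := by
  obtain ⟨k, hk⟩ := hab.pow 1 (one_mem _)
  obtain ⟨l, hl⟩ := hab.pow (tv h v 1) (tv_mem h v 1)
  have h3 := trace_two h2 hk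
  have h4 := trace_two h2 hl
  have e3 : ((a * (1 * b * 1⁻¹) : V ≃ₗ[F] V) : V →ₗ[F] V) = (a : V →ₗ[F] V) ∘ₗ (b : V →ₗ[F] V) := by
    rw [one_mul, inv_one, mul_one]; rfl
  have e4 : ((a * (tv h v 1 * b * (tv h v 1)⁻¹) : V ≃ₗ[F] V) : V →ₗ[F] V) =
      (a : V →ₗ[F] V) ∘ₗ (tv h v 1 : V →ₗ[F] V) ∘ₗ (b : V →ₗ[F] V) ∘ₗ ((tv h v 1)⁻¹ : V ≃ₗ[F] V) := rfl
  rw [e3] at h3
  rw [e4, trace_tv', h3] at h4
  change (finrank F V : F) + (B v (b (a v)) - B v (a (b v))) - B v (b v) * B v (a v) = _ at h4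
  linear_combination -h4 - (B v (a (b v))) * h2

/-- third differences of the product of two functions -/
theorem third (h : IsSp B) (h2 : (2 : F) = 0) (hab : P2 B a b) (x y z : V) :
    B (x + y + z) (a (x + y + z)) * B (x + y + z) (b (x + y + z)) +
      B (x + y) (a (x + y)) * B (x + y) (b (x + y)) + B (x + z) (a (x + z)) * B (x + z) (b (x + z)) +
      B (y + z) (a (y + z)) * B (y + z) (b (y + z)) + B x (a x) * B x (b x) + B y (a y) * B y (b y) +
      B z (a z) * B z (b z) = 0 := by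
  rw [hab.key h h2, hab.key h h2, hab.key h h2, hab.key h h2, hab.key h h2, hab.key h h2, hab.key h h2]
  simp only [map_add, LinearMap.add_apply]
  ring_nf
  have h4 : (4 : F) = 0 := by
    have : (4 : F) = 2 * 2 := by norm_num
    rw [this, h2, zero_mul]
  simp only [h2, h4, mul_zero, add_zero]

/-- the polar form of `B v (a v)` -/
def bt (B : LinearMap.BilinForm F V) (a : V ≃ₗ[F] V) (u v : V) : F := B u (a v) + B v (a u)

/-- the cubic coefficient -/
theorem cubic (h : IsSp B) (h2 : (2 : F) = 0) (hab : P2 B a b) (x y z : V) :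
    B x (a x) * bt B b y z + B y (a y) * bt B b x z + B z (a z) * bt B b x y +
      bt B a y z * B x (b x) + bt B a x z * B y (b y) + bt B a x y * B z (b z) +
      bt B a x y * bt B b x z + bt B a x z * bt B b x y + bt B a x y * bt B b y z +
      bt B a y z * bt B b x y + bt B a x z * bt B b y z + bt B a y z * bt B b x z = 0 := by
  have h1 := third h h2 hab x y z
  simp only [map_add, LinearMap.add_apply] at h1
  unfold bt
  have h4 : (4 : F) = 0 := by
    have : (4 : F) = 2 * 2 := by norm_num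
    rw [this, h2, zero_mul]
  rw [← h1]
  ring_nf
  simp only [h2, h4, mul_zero, add_zero]

end Cfsg.Agent.H27.AH.SpTwo
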