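import Mathlib
import Cfsg.Agent.H27.AH.SpTwo

/-!
# S2451 (helper27): `PSp_2m(2)`, `m ≥ 3`, products of two classes, part 2: the linear argument
-/

set_option autoImplicit false
set_option linter.unusedSectionVars false

namespace Cfsg.Agent.H27.AH.SpTwo

open Module Cfsg.Agent.H955 Cfsg.Agent.H105.Sz Cfsg.Agent.H105.SzSp

universe u v

variable {F : Type u} {V : Type v} [Field F] [AddCommGroup V] [Module F V] [FiniteDimensional F V]
  {B : LinearMap.BilinForm F V} {a b : V ≃ₗ[F] V}

/-- the field with two elements -/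
def F2 (F : Type u) [Field F] : Prop := ∀ c : F, c = 0 ∨ c = 1

theorem F2.two (hF : F2 F) : (2 : F) = 0 := by
  rcases hF 2 with h | h
  · exact h
  · exfalso
    have : (1 : F) = 0 := by linear_combination h
    exact one_ne_zero this

theorem F2.one_of (hF : F2 F) {c : F} (hc : c ≠ 0) : c = 1 := (hF c).resolve_left hc

theorem vadd_self (hF : F2 F) (v : V) : v + v = 0 := by
  rw [← two_smul F v, hF.two, zero_smul]

theorem eq_of_vadd (hF : F2 F) {v w : V} (h : v + w = 0) : v = w := by
  have h1 : v + w + w = 0 + w := by rw [h]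
  rw [add_assoc, vadd_self hF, add_zero, zero_add] at h1
  exact h1

theorem swap2 (h : IsSp B) (hF : F2 F) (u v : V) : B u v = B v u := by
  rw [h.swap u v]
  linear_combination -(B v u) * hF.two

theorem inv_left {a : V ≃ₗ[F] V} (ha : a ∈ IsoB B) (u v : V) : B (a⁻¹ u) v = B u (a v) := by
  rw [← ha (a⁻¹ u) v]
  have : a (a⁻¹ u) = u := LinearEquiv.apply_symm_apply a u
  rw [this]

theorem inv_right {a : V ≃ₗ[F] V} (ha : a ∈ IsoB B) (u v : V) : B u (a⁻¹ v) = B (a u) v := by
  rw [← ha u (a⁻¹ v)]
  have : a (a⁻¹ v) = v := LinearEquiv.apply_symm_apply a v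
  rw [this]

/-- the quadratic form -/
def qd (B : LinearMap.BilinForm F V) (a : V ≃ₗ[F] V) (v : V) : F := B v (a v)

theorem bt_add_left (u u' v : V) : bt B a (u + u') v = bt B a u v + bt B a u' v := by
  unfold bt
  simp only [map_add, LinearMap.add_apply]
  ring

theorem bt_comm (u v : V) : bt B a u v = bt B a v u := by
  unfold bt
  ring

theorem bt_add_right (u v v' : V) : bt B a u (v + v') = bt B a u v + bt B a u v' := by
  rw [bt_comm, bt_add_left, bt_comm v, bt_comm v']

theorem bt_smul_left (c : F) (u v : V) : bt B a (c • u) v = c * bt B a u v := by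
  unfold bt
  simp only [map_smul, LinearMap.smul_apply, smul_eq_mul]
  ring

theorem bt_smul_right (c : F) (u v : V) : bt B a u (c • v) = c * bt B a u v := by
  rw [bt_comm, bt_smul_left, bt_comm]

theorem bt_self (hF : F2 F) (v : V) : bt B a v v = 0 := by
  unfold bt
  linear_combination (B v (a v)) * hF.two

theorem qd_add (u v : V) : qd B a (u + v) = qd B a u + qd B a v + bt B a u v := by
  unfold qd bt
  simp only [map_add, LinearMap.add_apply]
  ring

theorem bt_eq (h : IsSp B) (hF : F2 F) (ha : a ∈ IsoB B) (u v : V) :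
    bt B a u v = B u (a v + a⁻¹ v) := by
  unfold bt
  rw [map_add, inv_right ha, swap2 h hF v]

theorem qd_conj {g : V ≃ₗ[F] V} (hg : g ∈ IsoB B) (v : V) : qd B (g * b * g⁻¹) (g v) = qd B b v := by
  unfold qd
  change B (g v) (g (b (g⁻¹ (g v)))) = _
  have : g⁻¹ (g v) = v := LinearEquiv.symm_apply_apply g v
  rw [this, hg]

theorem bt_conj {g : V ≃ₗ[F] V} (hg : g ∈ IsoB B) (u v : V) :
    bt B (g * b * g⁻¹) (g u) (g v) = bt B b u v := by
  unfold bt
  change B (g u) (g (b (g⁻¹ (g v)))) + B (g v) (g (b (g⁻¹ (g u)))) = _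
  have h1 : g⁻¹ (g v) = v := LinearEquiv.symm_apply_apply g v
  have h2 : g⁻¹ (g u) = u := LinearEquiv.symm_apply_apply g u
  rw [h1, h2, hg, hg]

theorem conj_apply (g b : V ≃ₗ[F] V) (v : V) : (g * b * g⁻¹) (g v) = g (b v) := by
  change g (b (g⁻¹ (g v))) = _
  have : g⁻¹ (g v) = v := LinearEquiv.symm_apply_apply g v
  rw [this]

/-- a totally isotropic triple -/
structure T3 (B : LinearMap.BilinForm F V) (x y z : V) : Prop where
  ind : ∀ r s t : F, r • x + s • y + t • z = 0 → r = 0 ∧ s = 0 ∧ t = 0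
  xy : B x y = 0
  xz : B x z = 0
  yz : B y z = 0

namespace T3

variable {x y z : V}

theorem lin (h : T3 B x y z) : LinearIndependent F ![x, y, z] := by
  rw [Fintype.linearIndependent_iff]
  intro g hg
  rw [Fin.sum_univ_three] at hg
  obtain ⟨h1, h2, h3⟩ := h.ind (g 0) (g 1) (g 2) (by simpa using hg)
  intro i
  fin_cases i
  · exact h1
  · exact h2
  · exact h3

theorem swap12 (hS : IsSp B) (h : T3 B x y z) : T3 B y x z where
  ind r s t hr := by
    obtain ⟨h1, h2, h3⟩ := h.ind s r t (by rw [← hr]; abel)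
    exact ⟨h2, h1, h3⟩
  xy := by rw [hS.swap, h.xy, neg_zero]
  xz := h.yz
  yz := h.xz

theorem swap23 (hS : IsSp B) (h : T3 B x y z) : T3 B x z y where
  ind r s t hr := by
    obtain ⟨h1, h2, h3⟩ := h.ind r t s (by rw [← hr]; abel)
    exact ⟨h1, h3, h2⟩
  xy := h.xz
  xz := h.xy
  yz := by rw [hS.swap, h.yz, neg_zero]

theorem add12 (hS : IsSp B) (h : T3 B x y z) (c : F) : T3 B (x + c • y) y z where
  ind r s t hr := by
    obtain ⟨h1, h2, h3⟩ := h.ind r (r * c + s) t (by rw [← hr]; module)
    subst h1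
    exact ⟨rfl, by simpa using h2, h3⟩
  xy := by rw [map_add, map_smul, LinearMap.add_apply, LinearMap.smul_apply, h.xy, hS.alt, smul_zero,
    add_zero]
  xz := by rw [map_add, map_smul, LinearMap.add_apply, LinearMap.smul_apply, h.xz, h.yz, smul_zero,
    add_zero]
  yz := h.yz

theorem add13 (hS : IsSp B) (h : T3 B x y z) (c : F) : T3 B (x + c • z) y z :=
  ((h.swap23 hS).add12 hS c).swap23 hS

end T3

/-- **the cubic identity on two totally isotropic triples** -/
theorem ti3 (h : IsSp B) (hF : F2 F) (hab : P2 B a b) {x y z x' y' z' : V} (hx : T3 B x y z)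
    (hy : T3 B x' y' z') :
    qd B a x * bt B b y' z' + qd B a y * bt B b x' z' + qd B a z * bt B b x' y' +
      bt B a y z * qd B b x' + bt B a x z * qd B b y' + bt B a x y * qd B b z' +
      bt B a x y * bt B b x' z' + bt B a x z * bt B b x' y' + bt B a x y * bt B b y' z' +
      bt B a y z * bt B b x' y' + bt B a x z * bt B b y' z' + bt B a y z * bt B b x' z' = 0 := by
  obtain ⟨g, hg, hg'⟩ := witt h ![x', y', z'] ![x, y, z] hy.lin hx.lin (by
    intro i j
    fin_cases i <;> fin_cases j <;>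
      simp [h.alt, hx.xy, hx.xz, hx.yz, hy.xy, hy.xz, hy.yz, h.swap y, h.swap z, h.swap y', h.swap z'])
  have e1 : g x' = x := by simpa using hg' 0
  have e2 : g y' = y := by simpa using hg' 1
  have e3 : g z' = z := by simpa using hg' 2
  have h1 := cubic h hF.two (hab.conj hg) x y z
  have q1 := qd_conj (b := b) hg x'
  have q2 := qd_conj (b := b) hg y'
  have q3 := qd_conj (b := b) hg z'
  have b1 := bt_conj (b := b) hg y' z'
  have b2 := bt_conj (b := b) hg x' z'
  have b3 := bt_conj (b := b) hg x' y'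
  rw [e1] at q1 b2 b3
  rw [e2] at q2 b1 b3
  rw [e3] at q3 b1 b2
  rw [b1, b2, b3] at h1
  change qd B a x * _ + qd B a y * _ + qd B a z * _ + _ * qd B _ x + _ * qd B _ y + _ * qd B _ z +
    _ + _ + _ + _ + _ + _ = 0 at h1
  rw [q1, q2, q3] at h1
  exact h1

/-- extension of pairs -/
theorem exists_T3 (h : IsSp B) (hF : F2 F) (hn : 6 ≤ finrank F V) {y z : V}
    (hi : LinearIndependent F ![y, z]) (hyz : B y z = 0) : ∃ x, T3 B x y z := by
  have hy : y ≠ 0 := hi.ne_zero 0
  have hz : z ≠ 0 := hi.ne_zero 1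
  have h1 := finrank_ker h hy
  have h2 := finrank_ker h hz
  have h3 := Submodule.finrank_sup_add_finrank_inf_eq (LinearMap.ker (B y)) (LinearMap.ker (B z))
  have h4 := Submodule.finrank_le (LinearMap.ker (B y) ⊔ LinearMap.ker (B z))
  have h5 := finrank_span_pair_le (F := F) y z
  obtain ⟨x, hx1, hx2⟩ := exists_notMem (W := Submodule.span F {y, z})
    (W' := LinearMap.ker (B y) ⊓ LinearMap.ker (B z)) (by omega)
  refine ⟨x, ?_, ?_, ?_, hyz⟩
  · intro r s t hr
    rw [LinearIndependent.pair_iff] at hi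
    have hr0 : r = 0 := by
      by_contra hr0
      have hr1 := hF.one_of hr0
      subst hr1
      apply hx2
      rw [mem_span_pair']
      refine ⟨s, t, ?_⟩
      have h6 : x + (s • y + t • z) = 0 := by rw [← hr]; module
      exact (eq_of_vadd hF h6).symm
    subst hr0
    obtain ⟨h6, h7⟩ := hi s t (by rw [← hr]; module)
    exact ⟨rfl, h6, h7⟩
  · rw [h.swap]
    have : B y x = 0 := hx1.1
    rw [this, neg_zero]
  · rw [h.swap]
    have : B z x = 0 := hx1.2
    rw [this, neg_zero]

/-- extension of vectors -/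
theorem exists_pair (h : IsSp B) (hn : 6 ≤ finrank F V) {z : V} (hz : z ≠ 0) :
    ∃ y, LinearIndependent F ![y, z] ∧ B y z = 0 := by
  have h1 := finrank_ker h hz
  have h2 := finrank_span_single_le (F := F) z
  obtain ⟨x, hx1, hx2⟩ := exists_notMem (W := Submodule.span F {z})
    (W' := LinearMap.ker (B z)) (by omega)
  refine ⟨x, ?_, ?_⟩
  · have h3 := indep_of_notMem hz hx2
    rw [LinearIndependent.pair_iff] at h3 ⊢
    intro s t hst
    obtain ⟨h4, h5⟩ := h3 t s (by rw [← hst]; abel)
    exact ⟨h5, h4⟩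
  · rw [h.swap]
    have : B z x = 0 := hx1
    rw [this, neg_zero]

/-- if the polar form of `a` is nonzero on a totally isotropic pair, the quadratic form of `b` is zero -/
theorem qd_zero_of (h : IsSp B) (hF : F2 F) (hn : 6 ≤ finrank F V) (hab : P2 B a b) {x y : V}
    (hxy : B x y = 0) (hb : bt B a x y ≠ 0) (v : V) : qd B b v = 0 := by
  have hb1 := hF.one_of hb
  have hi : LinearIndependent F ![x, y] := by
    have hx0 : x ≠ 0 := by
      rintro rfl
      apply hb
      unfold bt
      simp
    rw [LinearIndependent.pair_iff' hx0]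
    intro c hc
    apply hb
    rw [← hc, bt_smul_right, bt_self hF, mul_zero]
  obtain ⟨z, hz⟩ := exists_T3 h hF hn hi hxy
  -- normalise
  have hz1 := hz.add12 h (bt B a z y)
  have hz2 := hz1.add13 h (bt B a z x)
  set z' := z + bt B a z y • x + bt B a z x • y with hz'
  have e1 : bt B a z' x = 0 := by
    rw [hz', bt_add_left, bt_add_left, bt_smul_left, bt_smul_left, bt_self hF, bt_comm y, hb1]
    linear_combination (bt B a z x) * hF.two
  have e2 : bt B a z' y = 0 := by
    rw [hz', bt_add_left, bt_add_left, bt_smul_left, bt_smul_left, bt_self hF, hb1]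
    linear_combination (bt B a z y) * hF.two
  have hT : T3 B x y z' := (hz2.swap12 h).swap23 h
  have e1' : bt B a x z' = 0 := by rw [bt_comm]; exact e1
  have e2' : bt B a y z' = 0 := by rw [bt_comm]; exact e2
  have key : ∀ {x' y' w : V}, T3 B x' y' w →
      qd B a x * bt B b y' w + qd B a y * bt B b x' w + qd B a z' * bt B b x' y' +
      qd B b w + bt B b x' w + bt B b y' w = 0 := by
    intro x' y' w hw
    have := ti3 h hF hab hT hw
    rw [e1', e2', hb1] at this
    linear_combination this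
  have k1 : ∀ {x' y' w : V}, T3 B x' y' w → qd B a y * bt B b y' w + bt B b y' w = 0 := by
    intro x' y' w hw
    have h1 := key hw
    have h2 := key (hw.add12 h 1)
    rw [one_smul, bt_add_left, bt_add_left, bt_self hF] at h2
    linear_combination h2 - h1
  have k2 : ∀ {x' y' w : V}, T3 B x' y' w → qd B a x * bt B b x' w + bt B b x' w = 0 := by
    intro x' y' w hw
    have h1 := key hw
    have h2 := key (((hw.swap12 h).add12 h 1).swap12 h)
    rw [one_smul, bt_add_left, bt_add_right, bt_self hF] at h2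
    linear_combination h2 - h1
  have k3 : ∀ {x' y' w : V}, T3 B x' y' w → qd B a z' * bt B b y' w = 0 := by
    intro x' y' w hw
    have h1 := key hw
    have h2 := key (hw.add13 h 1)
    rw [one_smul, bt_add_left, bt_add_left, bt_self hF, bt_comm w y'] at h2
    linear_combination h2 - h1
  by_cases hv : v = 0
  · subst hv
    unfold qd
    simp
  obtain ⟨y', hi', hyv⟩ := exists_pair h hn hv
  obtain ⟨x', hx'⟩ := exists_T3 h hF hn hi' hyv
  have h1 := key hx'
  have h2 := k1 (hx'.swap12 h)
  have h3 := k2 (hx'.swap12 h)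
  have h4 := k3 ((hx'.swap23 h).swap12 h)
  linear_combination h1 - h2 - h3 - h4

/-- the sum `a + a⁻¹` is a scalar if the polar form vanishes on orthogonal pairs -/
theorem scal_of (h : IsSp B) (hF : F2 F) (ha : a ∈ IsoB B)
    (hb : ∀ u v, B u v = 0 → bt B a u v = 0) : ∃ κ : F, ∀ v, a v + a⁻¹ v = κ • v := by
  have := scalar_of_all' (a := (a : V →ₗ[F] V) + ((a⁻¹ : V ≃ₗ[F] V) : V →ₗ[F] V)) (fun v => by
    change ∃ c : F, a v + a⁻¹ v = c • v
    by_cases hv : v = 0
    · exact ⟨0, by rw [hv]; simp⟩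
    by_contra hcon
    push Not at hcon
    have hi : LinearIndependent F ![v, a v + a⁻¹ v] := by
      rw [LinearIndependent.pair_iff' hv]
      intro c hc
      exact hcon c hc.symm
    obtain ⟨x, hx1, hx2⟩ := exists_sep h hi
    have h1 := hb x v (by rw [swap2 h hF]; exact hx1)
    rw [bt_eq h hF ha, swap2 h hF, hx2] at h1
    exact one_ne_zero h1)
  exact this

/-- a vector orthogonal to a hyperbolic pair -/
theorem exists_hyp (h : IsSp B) (hn : 6 ≤ finrank F V) {v : V} (hv : v ≠ 0) :
    ∃ x y, B v x = 0 ∧ B v y = 0 ∧ B x y = 1 := by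
  have h1 := finrank_ker h hv
  have h2 := finrank_span_single_le (F := F) v
  obtain ⟨x, hx1, hx2⟩ := exists_notMem (W := Submodule.span F {v})
    (W' := LinearMap.ker (B v)) (by omega)
  obtain ⟨y, hy1, hy2⟩ := exists_sep h (indep_of_notMem hv hx2)
  exact ⟨x, y, hx1, hy1, hy2⟩

theorem rel (h : IsSp B) (hF : F2 F) (hn : 6 ≤ finrank F V) (hab : P2 B a b) {κ l : F}
    (ha : ∀ u v, bt B a u v = κ * B u v) (hb : ∀ u v, bt B b u v = l * B u v) {v : V} (hv : v ≠ 0) :
    l * qd B a v + κ * qd B b v = 0 := by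
  obtain ⟨x, y, h1, h2, h3⟩ := exists_hyp h hn hv
  have h4 := cubic h hF.two hab v x y
  simp only [ha, hb, h1, h2, h3] at h4
  unfold qd
  linear_combination h4

theorem qd_zero_or [Finite F] (h : IsSp B) (hF : F2 F) (hn : 6 ≤ finrank F V) (hab : P2 B a b) :
    (∀ v, qd B a v = 0) ∨ (∀ v, qd B b v = 0) := by
  by_contra hcon
  push Not at hcon
  obtain ⟨⟨va, hva⟩, vb, hvb⟩ := hcon
  have hva0 : va ≠ 0 := by
    rintro rfl
    apply hva
    unfold qd
    simp
  have hvb0 : vb ≠ 0 := by
    rintro rfl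
    apply hvb
    unfold qd
    simp
  obtain ⟨κ, hκ⟩ := scal_of h hF hab.ha (fun u v huv => by
    by_contra hc
    exact hvb (qd_zero_of h hF hn hab huv hc vb))
  obtain ⟨l, hl⟩ := scal_of h hF hab.hb (fun u v huv => by
    by_contra hc
    exact hva (qd_zero_of h hF hn hab.symm huv hc va))
  have ka : ∀ u v, bt B a u v = κ * B u v := by
    intro u v
    rw [bt_eq h hF hab.ha, hκ, map_smul, smul_eq_mul]
  have kb : ∀ u v, bt B b u v = l * B u v := by
    intro u v
    rw [bt_eq h hF hab.hb, hl, map_smul, smul_eq_mul]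
  have kbc : ∀ g ∈ IsoB B, ∀ u v, bt B (g * b * g⁻¹) u v = l * B u v := by
    intro g hg u v
    have e1 : g (g⁻¹ u) = u := LinearEquiv.apply_symm_apply g u
    have e2 : g (g⁻¹ v) = v := LinearEquiv.apply_symm_apply g v
    rw [← e1, ← e2, bt_conj hg, kb, hg]
  have R : ∀ v w : V, v ≠ 0 → w ≠ 0 → l * qd B a v + κ * qd B b w = 0 := by
    intro v w hv hw
    obtain ⟨g, hg, hgv⟩ := witt_one h hw hv
    have h1 := rel h hF hn (hab.conj hg) ka (kbc g hg) hv
    rw [← hgv, qd_conj hg, hgv] at h1
    exact h1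
  obtain ⟨v0, -, hv0, hq0⟩ := exists_zero (B := B) (a : V →ₗ[F] V) ⊤ (by rw [finrank_top]; omega)
  rcases hF κ with rfl | rfl
  · rcases hF l with rfl | rfl
    · -- both involutions
      obtain ⟨g, hg, hgv⟩ := witt_one h hvb0 hva0
      have h1 := (hab.conj hg).key h hF.two va
      have h2 : B va ((g * b * g⁻¹) va) = qd B b vb := by
        rw [← qd_conj (b := b) hg vb, hgv]
        rfl
      rw [h2] at h1
      have ea : a⁻¹ va = a va := by
        have := hκ va
        rw [zero_smul] at this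
        exact (eq_of_vadd hF this).symm
      have eb : (g * b * g⁻¹)⁻¹ va = (g * b * g⁻¹) va := by
        have h3 : b⁻¹ vb = b vb := by
          have := hl vb
          rw [zero_smul] at this
          exact (eq_of_vadd hF this).symm
        have h4 : (g * b * g⁻¹)⁻¹ = g * b⁻¹ * g⁻¹ := by group
        rw [h4, ← hgv, conj_apply, conj_apply, h3]
      have h5 := inv_left hab.ha va ((g * b * g⁻¹) va)
      have h6 := inv_left (hab.conj hg).hb va (a va)
      rw [ea] at h5
      rw [eb] at h6
      rw [← h5, ← h6, swap2 h hF (a va)] at h1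
      have h7 : B va (a va) * qd B b vb = 0 := by
        rw [h1]
        linear_combination (B ((g * b * g⁻¹) va) (a va)) * hF.two
      rcases mul_eq_zero.mp h7 with h8 | h8
      · exact hva h8
      · exact hvb h8
    · have h1 := R va vb hva0 hvb0
      apply hva
      linear_combination h1
  · rcases hF l with rfl | rfl
    · have h1 := R va vb hva0 hvb0
      apply hvb
      linear_combination h1
    · have h1 := R v0 vb hv0 hvb0
      have h2 : qd B a v0 = 0 := hq0
      rw [h2] at h1
      apply hvb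
      linear_combination h1

/-- the period argument -/
theorem three {z : V ≃ₗ[F] V} {x : V} {k : ℕ} (h3 : z (z (z x)) = x) (hk : z ^ 2 ^ k = 1) : z x = x := by
  have hp : ∀ n : ℕ, (z ^ n) x = (⇑z)^[n] x := by
    intro n
    induction n with
    | zero => rfl
    | succ n ih =>
      rw [pow_succ', Function.iterate_succ_apply', ← ih]
      rfl
  have h1 : Function.IsPeriodicPt z 3 x := h3
  have h2 : Function.IsPeriodicPt z (2 ^ k) x := by
    change (⇑z)^[2 ^ k] x = x
    rw [← hp, hk]
    rfl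
  have h4 := h1.gcd h2
  have h5 : Nat.gcd 3 (2 ^ k) = 1 := by
    apply Nat.Coprime.pow_right
    decide
  rw [h5] at h4
  exact h4

theorem exists_move {b : V ≃ₗ[F] V} (hb1 : b ≠ 1) : ∃ w, b w ≠ w := by
  by_contra hcon
  push Not at hcon
  exact hb1 (LinearEquiv.ext hcon)

theorem indep_move (hF : F2 F) {b : V ≃ₗ[F] V} {w : V} (hw : b w ≠ w) : LinearIndependent F ![w, b w] := by
  have hw0 : w ≠ 0 := by
    rintro rfl
    exact hw (map_zero b)
  rw [LinearIndependent.pair_iff' hw0]
  intro c hc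
  rcases hF c with rfl | rfl
  · rw [zero_smul] at hc
    exact hw0 ((LinearEquiv.map_eq_zero_iff b).mp hc.symm)
  · rw [one_smul] at hc
    exact hw hc.symm

theorem scal_of_qd (h : IsSp B) (hF : F2 F) (hab : P2 B a b)
    (hq : ∀ v, qd B b v = 0) (hb1 : b ≠ 1) : ∃ κ : F, ∀ v, a v + a⁻¹ v = κ • v := by
  obtain ⟨w, hw⟩ := exists_move hb1
  have key : ∀ v y : V, LinearIndependent F ![v, y] → B v y = 0 → B (a v + a⁻¹ v) y = 0 := by
    intro v y hvy hvy0
    obtain ⟨g, hg, hg1, hg2⟩ := witt_pair h (indep_move hF hw) hvy (by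
      rw [hvy0]
      exact hq w)
    have h1 := (hab.conj hg).key h hF.two v
    have hqc : ∀ v, qd B (g * b * g⁻¹) v = 0 := by
      intro v
      have e1 : g (g⁻¹ v) = v := LinearEquiv.apply_symm_apply g v
      rw [← e1, qd_conj hg, hq]
    have h2 : B v ((g * b * g⁻¹) v) = 0 := hqc v
    have h3 : (g * b * g⁻¹) v = y := by rw [← hg1, conj_apply, hg2]
    have h4 := alt_swap h (f := ((g * b * g⁻¹ : V ≃ₗ[F] V) : V →ₗ[F] V)) hqc v (a v)
    change B v ((g * b * g⁻¹) (a v)) = B ((g * b * g⁻¹) v) (a v) at h4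
    rw [h2, h4, h3, mul_zero, ← inv_left hab.ha, swap2 h hF y] at h1
    rw [map_add, LinearMap.add_apply]
    linear_combination -h1
  have := scalar_of_all' (a := (a : V →ₗ[F] V) + ((a⁻¹ : V ≃ₗ[F] V) : V →ₗ[F] V)) (fun v => by
    change ∃ c : F, a v + a⁻¹ v = c • v
    by_cases hv : v = 0
    · exact ⟨0, by rw [hv]; simp⟩
    by_contra hcon
    push Not at hcon
    have hi : LinearIndependent F ![v, a v + a⁻¹ v] := by
      rw [LinearIndependent.pair_iff' hv]
      intro c hc
      exact hcon c hc.symm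
    obtain ⟨x, hx1, hx2⟩ := exists_sep h hi
    have h1 : LinearIndependent F ![v, x] := by
      rw [LinearIndependent.pair_iff' hv]
      intro c hc
      rw [← hc, map_smul, smul_eq_mul, swap2 h hF, ← bt_eq h hF hab.ha, bt_self hF, mul_zero] at hx2
      exact zero_ne_one hx2
    rw [key v x h1 hx1] at hx2
    exact zero_ne_one hx2)
  exact this

end Cfsg.Agent.H27.AH.SpTwo
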