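import Mathlib
import Cfsg.Agent.H27.AH.SpTwoB

/-!
# S2451 (helper27): `PSp_2m(2)`, `m ≥ 3`, products of two classes, part 3: the end of the linear argument
-/

set_option autoImplicit false
set_option linter.unusedSectionVars false

namespace Cfsg.Agent.H27.AH.SpTwo

open Module Cfsg.Agent.H955 Cfsg.Agent.H105.Sz Cfsg.Agent.H105.SzSp

universe u v

variable {F : Type u} {V : Type v} [Field F] [AddCommGroup V] [Module F V] [FiniteDimensional F V]
  {B : LinearMap.BilinForm F V} {a b : V ≃ₗ[F] V}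

/-- the fixed space -/
def fx (a : V ≃ₗ[F] V) : Submodule F V := LinearMap.ker (bc a 1)

theorem mem_fx {a : V ≃ₗ[F] V} {v : V} : v ∈ fx a ↔ a v = v := by
  unfold fx
  rw [LinearMap.mem_ker, bc_apply, one_smul, sub_eq_zero]

theorem finrank_fx_conj (g z : V ≃ₗ[F] V) : finrank F (fx (g * z * g⁻¹)) = finrank F (fx z) := by
  have h1 : fx (g * z * g⁻¹) = (fx z).map (g : V →ₗ[F] V) := by
    ext v
    rw [Submodule.mem_map, mem_fx]
    constructor
    · intro hv
      refine ⟨g⁻¹ v, ?_, LinearEquiv.apply_symm_apply g v⟩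
      rw [mem_fx]
      apply g.injective
      rw [← conj_apply]
      have e : g (g⁻¹ v) = v := LinearEquiv.apply_symm_apply g v
      rw [e, hv]
    · rintro ⟨w, hw, rfl⟩
      rw [mem_fx] at hw
      change (g * z * g⁻¹) (g w) = g w
      rw [conj_apply, hw]
  rw [h1]
  exact LinearEquiv.finrank_map_eq g (fx z)

/-- `b² = 1`: the fixed space is large -/
theorem finrank_fx (hF : F2 F) (hb : ∀ v, b (b v) = v) : finrank F V ≤ 2 * finrank F (fx b) := by
  have h1 := LinearMap.finrank_range_add_finrank_ker (bc b 1)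
  have h2 : LinearMap.range (bc b 1) ≤ fx b := by
    rintro _ ⟨v, rfl⟩
    rw [mem_fx, bc_apply, one_smul, map_sub, hb]
    have h3 : v - b v + (b v - v) = 0 := by abel
    exact eq_of_vadd hF h3
  have h3 := Submodule.finrank_mono h2
  change finrank F (LinearMap.range (bc b 1)) + finrank F (fx b) = finrank F V at h1
  omega

theorem no_one [Finite F] (h : IsSp B) (hF : F2 F) (hn : 6 ≤ finrank F V) (hab : P2 B a b)
    (hq : ∀ v, qd B b v = 0) (hk : ∀ v, a v + a⁻¹ v = v) : False := by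
  have hb := sq_one h hab.hb hq
  have h1 := finrank_fx hF hb
  obtain ⟨u₁, hu₁, hu₁0⟩ := Submodule.exists_mem_ne_zero_of_ne_bot (p := fx b) (by
    intro hb'
    rw [hb', finrank_bot] at h1
    omega)
  have h2 := finrank_ker h hu₁0
  have h3 := Submodule.finrank_sup_add_finrank_inf_eq (fx b) (LinearMap.ker (B u₁))
  have h4 := Submodule.finrank_le (fx b ⊔ LinearMap.ker (B u₁))
  have h5 := finrank_span_single_le (F := F) u₁
  obtain ⟨u₂, hu₂, hu₂0⟩ := exists_notMem (W := Submodule.span F {u₁})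
    (W' := fx b ⊓ LinearMap.ker (B u₁)) (by omega)
  have hi := indep_of_notMem hu₁0 hu₂0
  rw [mem_fx] at hu₁
  have hu₂1 : b u₂ = u₂ := mem_fx.mp hu₂.1
  have hu₂2 : B u₁ u₂ = 0 := hu₂.2
  obtain ⟨x, -, hx0, hqx⟩ := exists_zero (B := B) (a : V →ₗ[F] V) ⊤ (by rw [finrank_top]; omega)
  have hqx' : B x (a x) = 0 := hqx
  have haa : ∀ v, a (a v) = a v + v := by
    intro v
    have h6 := hk (a v)
    have h7 : a⁻¹ (a v) = v := LinearEquiv.symm_apply_apply a v
    rw [h7] at h6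
    rw [← h6, add_assoc, vadd_self hF, add_zero, h6]
  have hax : a x ≠ x := by
    intro hc
    have h6 := haa x
    rw [hc, hc, vadd_self hF] at h6
    exact hx0 h6
  obtain ⟨g, hg, hg1, hg2⟩ := witt_pair h hi (indep_move hF hax) (by rw [hu₂2, hqx'])
  obtain ⟨k, hz⟩ := hab.pow g hg
  have e1 : (g * b * g⁻¹) x = x := by rw [← hg1, conj_apply, hu₁]
  have e2 : (g * b * g⁻¹) (a x) = a x := by rw [← hg2, conj_apply, hu₂1]
  have z1 : (a * (g * b * g⁻¹)) x = a x := by
    rw [LinearEquiv.mul_apply, e1]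
  have z2 : (a * (g * b * g⁻¹)) (a x) = a x + x := by
    rw [LinearEquiv.mul_apply, e2, haa]
  have z3 : (a * (g * b * g⁻¹)) ((a * (g * b * g⁻¹)) ((a * (g * b * g⁻¹)) x)) = x := by
    rw [z1, z2, map_add, z2, z1]
    have : a x + x + a x = a x + a x + x := by abel
    rw [this, vadd_self hF, zero_add]
  have z4 := three z3 hz
  rw [z1] at z4
  exact hax z4

theorem zero_fix (h : IsSp B) (hF : F2 F) (hab : P2 B a b)
    (hq : ∀ v, qd B b v = 0) (hb1 : b ≠ 1) (hk : ∀ v, a (a v) = v) {x : V} (hx : B x (a x) = 0) :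
    a x = x := by
  by_contra hax
  have hb := sq_one h hab.hb hq
  obtain ⟨w, hw⟩ := exists_move hb1
  have hi := indep_move hF hax
  have hi2 : LinearIndependent F ![x, x + a x] := by
    rw [LinearIndependent.pair_iff] at hi ⊢
    intro s t hst
    obtain ⟨h1, h2⟩ := hi (s + t) t (by rw [← hst]; module)
    subst h2
    exact ⟨by simpa using h1, rfl⟩
  obtain ⟨g, hg, hg1, hg2⟩ := witt_pair h (indep_move hF hw) hi2 (by
    rw [map_add, h.alt, hx, add_zero]
    exact hq w)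
  obtain ⟨k, hz⟩ := hab.pow g hg
  have e1 : (g * b * g⁻¹) x = x + a x := by rw [← hg1, conj_apply, hg2, hg1]
  have e2 : (g * b * g⁻¹) (x + a x) = x := by rw [← hg2, conj_apply, hb, hg1]
  have e3 : (g * b * g⁻¹) (a x) = a x := by
    have h1 : a x = (x + a x) + x := by
      have : x + a x + x = x + x + a x := by abel
      rw [this, vadd_self hF, zero_add]
    have h2 : (g * b * g⁻¹) ((x + a x) + x) = x + (x + a x) := by rw [map_add, e2, e1]
    rw [← h1, ← add_assoc, vadd_self hF, zero_add] at h2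
    exact h2
  have z1 : (a * (g * b * g⁻¹)) x = a x + x := by
    rw [LinearEquiv.mul_apply, e1, map_add, hk]
  have z2 : (a * (g * b * g⁻¹)) (a x) = x := by
    rw [LinearEquiv.mul_apply, e3, hk]
  have z3 : (a * (g * b * g⁻¹)) ((a * (g * b * g⁻¹)) ((a * (g * b * g⁻¹)) x)) = x := by
    have h1 : (a * (g * b * g⁻¹)) (a x + x) = a x := by
      rw [map_add, z2, z1]
      have : x + (a x + x) = x + x + a x := by abel
      rw [this, vadd_self hF, zero_add]
    rw [z1, h1, z2]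
  have z4 := three z3 hz
  rw [z1] at z4
  have h5 : a x = 0 := by
    have h6 : a x + x + x = x + x := by rw [z4]
    rw [add_assoc, vadd_self hF, add_zero] at h6
    exact h6
  have h7 : x = 0 := (LinearEquiv.map_eq_zero_iff a).mp h5
  exact hax (by rw [h7]; simp)

/-- **the end** -/
theorem finish [Finite F] (h : IsSp B) (hF : F2 F) (hn : 6 ≤ finrank F V) (hab : P2 B a b)
    (hq : ∀ v, qd B b v = 0) (ha1 : a ≠ 1) (hb1 : b ≠ 1)
    (hc : ∀ g ∈ IsoB B, ∃ t : V ≃ₗ[F] V, t * (a * (g * b * g⁻¹)) * t⁻¹ = a * b) : False := by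
  obtain ⟨κ, hκ⟩ := scal_of_qd h hF hab hq hb1
  rcases hF κ with rfl | rfl
  swap
  · exact no_one h hF hn hab hq (fun v => by rw [hκ, one_smul])
  have hinv : ∀ v, a⁻¹ v = a v := by
    intro v
    have := hκ v
    rw [zero_smul] at this
    exact (eq_of_vadd hF this).symm
  have haa : ∀ v, a (a v) = v := by
    intro v
    rw [← hinv (a v)]
    exact LinearEquiv.symm_apply_apply a v
  have hz : ∀ v, B v (a v) = 0 → a v = v := fun v hv => zero_fix h hF hab hq hb1 haa hv
  have hbt : ∀ u v, bt B a u v = 0 := by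
    intro u v
    rw [bt_eq h hF hab.ha, hκ, zero_smul, map_zero]
  have hqc : ∀ g ∈ IsoB B, ∀ v, qd B (g * b * g⁻¹) v = 0 := by
    intro g hg v
    have e1 : g (g⁻¹ v) = v := LinearEquiv.apply_symm_apply g v
    rw [← e1, qd_conj hg, hq]
  have hb := sq_one h hab.hb hq
  -- the fixed space of the product
  have hfx : ∀ g ∈ IsoB B, fx (a * (g * b * g⁻¹)) = fx a ⊓ fx (g * b * g⁻¹) := by
    intro g hg
    ext v
    rw [Submodule.mem_inf, mem_fx, mem_fx, mem_fx, LinearEquiv.mul_apply]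
    constructor
    · intro hv
      have h1 : (g * b * g⁻¹) v = a v := by
        rw [← haa ((g * b * g⁻¹) v), hv]
      have h2 := hqc g hg v
      unfold qd at h2
      rw [h1] at h2
      have h3 := hz v h2
      exact ⟨h3, by rw [h1, h3]⟩
    · rintro ⟨h1, h2⟩
      rw [h2, h1]
  have hrank : ∀ g ∈ IsoB B, finrank F (fx (a * (g * b * g⁻¹))) = finrank F (fx (a * b)) := by
    intro g hg
    obtain ⟨t, ht⟩ := hc g hg
    rw [← ht, finrank_fx_conj]
  obtain ⟨v₀, hv₀⟩ := exists_move ha1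
  have hv₀0 : v₀ ≠ 0 := by
    rintro rfl
    exact hv₀ (map_zero a)
  -- first conjugate
  have h1 := finrank_fx hF hb
  obtain ⟨w₁, hw₁, hw₁0⟩ := Submodule.exists_mem_ne_zero_of_ne_bot (p := fx b) (by
    intro hb'
    rw [hb', finrank_bot] at h1
    omega)
  rw [mem_fx] at hw₁
  obtain ⟨g₁, hg₁, hgw₁⟩ := witt_one h hw₁0 hv₀0
  have h2 : finrank F (fx (a * (g₁ * b * g₁⁻¹))) < finrank F (fx b) := by
    rw [hfx g₁ hg₁, ← finrank_fx_conj g₁ b]
    apply Submodule.finrank_lt_finrank_of_lt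
    refine lt_of_le_of_ne inf_le_right fun he => hv₀ ?_
    have h3 : v₀ ∈ fx (g₁ * b * g₁⁻¹) := by
      rw [mem_fx, ← hgw₁, conj_apply, hw₁]
    rw [← he] at h3
    exact mem_fx.mp h3.1
  -- second conjugate
  obtain ⟨w₂, hw₂⟩ := exists_move hb1
  have hu0 : a v₀ + v₀ ≠ 0 := fun hc => hv₀ (eq_of_vadd hF hc)
  have hu0' : b w₂ + w₂ ≠ 0 := fun hc => hw₂ (eq_of_vadd hF hc)
  obtain ⟨g₂, hg₂, hgw₂⟩ := witt_one h hu0' hu0
  have h3 : fx (g₂ * b * g₂⁻¹) ≤ fx a := by
    intro v hv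
    rw [mem_fx] at hv ⊢
    by_contra hav
    have hq1 : B v (a v) = 1 := hF.one_of fun hc => hav (hz v hc)
    have hq2 : B v₀ (a v₀) = 1 := hF.one_of fun hc => hv₀ (hz v₀ hc)
    have hq3 : B (v + v₀) (a (v + v₀)) = 0 := by
      have h4 := qd_add (B := B) (a := a) v v₀
      rw [hbt] at h4
      unfold qd at h4
      rw [hq1, hq2] at h4
      rw [h4]
      linear_combination hF.two
    have hq4 := hz _ hq3
    have e1 : B (a v₀ + v₀) v = 0 := by
      have e2 : a v₀ + v₀ = (g₂ * b * g₂⁻¹) (g₂ w₂) + g₂ w₂ := by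
        rw [conj_apply, ← map_add, hgw₂]
      have e3 := (hab.conj hg₂).hb (g₂ w₂) v
      rw [hv] at e3
      rw [e2, map_add, LinearMap.add_apply, e3]
      linear_combination (B (g₂ w₂) v) * hF.two
    have e4 : B (a v₀ + v₀) (v + v₀) = 0 := by
      have e5 := hab.ha v₀ (v + v₀)
      rw [hq4] at e5
      rw [map_add B, LinearMap.add_apply, e5]
      linear_combination (B v₀ (v + v₀)) * hF.two
    rw [map_add (B (a v₀ + v₀)), e1, map_add B, LinearMap.add_apply, h.alt, swap2 h hF, hq2] at e4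
    exact one_ne_zero (by linear_combination e4 : (1 : F) = 0)
  have h4 : finrank F (fx (a * (g₂ * b * g₂⁻¹))) = finrank F (fx b) := by
    rw [hfx g₂ hg₂, inf_eq_right.mpr h3, finrank_fx_conj]
  have h5 := hrank g₁ hg₁
  have h6 := hrank g₂ hg₂
  omega

/-- **the linear theorem** -/
theorem main [Finite F] (h : IsSp B) (hF : F2 F) (hn : 6 ≤ finrank F V) (hab : P2 B a b)
    (ha1 : a ≠ 1) (hb1 : b ≠ 1)
    (hc : ∀ g ∈ IsoB B, ∃ t : V ≃ₗ[F] V, t * (a * (g * b * g⁻¹)) * t⁻¹ = a * b) : False := by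
  rcases qd_zero_or h hF hn hab with hq | hq
  swap
  · exact finish h hF hn hab hq ha1 hb1 hc
  · refine finish h hF hn hab.symm hq hb1 ha1 fun g hg => ?_
    obtain ⟨t, ht⟩ := hc g⁻¹ (inv_mem hg)
    refine ⟨a⁻¹ * t * a * g⁻¹, ?_⟩
    have e : a⁻¹ * t * a * g⁻¹ * (b * (g * a * g⁻¹)) * (a⁻¹ * t * a * g⁻¹)⁻¹ =
        a⁻¹ * (t * (a * (g⁻¹ * b * g⁻¹⁻¹)) * t⁻¹) * a := by group
    rw [e, ht]
    group

end Cfsg.Agent.H27.AH.SpTwo
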