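import Mathlib
import Cfsg.Agent.H27.AH.SpTwoC

/-!
# S2451 (helper27): `PSp_2m(2)`, `m ≥ 3`: row (C)
-/

set_option autoImplicit false
set_option linter.unusedSectionVars false

namespace Cfsg.Agent.H27.AH.SpTwo

open Module Cfsg Cfsg.Agent.H955 Cfsg.Agent.H105.Sz Cfsg.Agent.H105.SzSp Cfsg.Agent.H876
open Cfsg.Agent.ClassicalGeometry.SympBasic Cfsg.Agent.LieClassical.OrthFinite
open Cfsg.Agent.H330.ClassProd
open scoped Matrix MatrixGroups

theorem f2_of_card {F : Type*} [Field F] [Fintype F] (hF : Fintype.card F = 2) : F2 F := by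
  intro c
  by_contra hc
  push Not at hc
  classical
  have h1 : ({0, 1, c} : Finset F).card = 3 := by
    rw [Finset.card_insert_of_notMem, Finset.card_insert_of_notMem, Finset.card_singleton]
    · simpa using hc.2.symm
    · simp only [Finset.mem_insert, Finset.mem_singleton, not_or]
      exact ⟨zero_ne_one, hc.1.symm⟩
  have h2 := Finset.card_le_univ ({0, 1, c} : Finset F)
  omega

theorem center_eq_bot (m : ℕ) {F : Type} [Field F] (hF : F2 F) :
    Subgroup.center (Matrix.symplecticGroup (Fin m) F) = ⊥ := by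
  have hS : IsSp (F := F) (V := Fin m ⊕ Fin m → F) (sympBilin m F) := isSp_sympBilin m F
  rw [eq_bot_iff]
  intro z hz
  rw [Subgroup.mem_bot]
  have h1 : Scalar (rho m F z) := by
    apply scalar_of_comm hS
    intro g hg v
    rw [← rho_range] at hg
    obtain ⟨A, rfl⟩ := hg
    have h1 := congrArg (fun g => rho m F g v) (Subgroup.mem_center_iff.mp hz A)
    simp only [map_mul] at h1
    exact h1.symm
  obtain ⟨c, hc⟩ := h1
  apply rho_injective
  rw [map_one]
  apply LinearEquiv.ext
  intro v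
  rw [hc]
  rcases hF c with rfl | rfl
  · rw [zero_smul]
    have h2 : rho m F z v = 0 := by rw [hc, zero_smul]
    rw [(LinearEquiv.map_eq_zero_iff _).mp h2]
    rfl
  · rw [one_smul]
    rfl

/-- **`PSp_2m(2)`, `m ≥ 3`, row (C)** -/
theorem notC_psp_two (m : ℕ) (hm : 3 ≤ m) (F : Type) [Field F] [Fintype F] (hF : Fintype.card F = 2) :
    NotC 2 (PSp m F) := by
  have hF2 := f2_of_card hF
  have hS : IsSp (F := F) (V := Fin m ⊕ Fin m → F) (sympBilin m F) := isSp_sympBilin m F
  have hbot := center_eq_bot m hF2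
  set π := QuotientGroup.mk' (Subgroup.center (Matrix.symplecticGroup (Fin m) F)) with hπ
  have hinj : Function.Injective π := by
    rw [← MonoidHom.ker_eq_bot_iff, hπ, QuotientGroup.ker_mk', hbot]
  have hsurj : Function.Surjective π := QuotientGroup.mk'_surjective _
  intro a b c ha hb hc hab ⟨k, hk⟩
  obtain ⟨a, rfl⟩ := hsurj a
  obtain ⟨b, rfl⟩ := hsurj b
  have hr1 : ∀ x : Matrix.symplecticGroup (Fin m) F, π x ≠ 1 → rho m F x ≠ 1 := by
    intro x hx hx1
    apply hx
    have : x = 1 := rho_injective (by rw [hx1, map_one])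
    rw [this, map_one]
  refine main (a := rho m F a) (b := rho m F b) hS hF2 ?_ ?_ (hr1 a ha) (hr1 b hb) ?_
  · have := finrank_symp m F
    omega
  · refine ⟨?_, ?_, ?_⟩
    · rw [← rho_range]
      exact ⟨a, rfl⟩
    · rw [← rho_range]
      exact ⟨b, rfl⟩
    · intro g hg
      rw [← rho_range] at hg
      obtain ⟨g, rfl⟩ := hg
      refine ⟨k, ?_⟩
      have h1 := hab 1 (π g)
      obtain ⟨t, ht⟩ := isConj_iff.1 h1
      have h2 : (π (a * (g * b * g⁻¹))) ^ 2 ^ k = 1 := by
        have h3 : π (a * (g * b * g⁻¹)) = t * c * t⁻¹ := by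
          rw [ht]
          simp
        rw [h3, conj_pow, ← hk, pow_orderOf_eq_one]
        simp
      have h3 : (a * (g * b * g⁻¹)) ^ 2 ^ k = 1 := by
        apply hinj
        rw [map_pow, h2, map_one]
      rw [← map_inv, ← map_mul, ← map_mul, ← map_mul, ← map_pow, h3, map_one]
  · intro g hg
    rw [← rho_range] at hg
    obtain ⟨g, rfl⟩ := hg
    have h1 := (hab 1 (π g)).symm.trans hab.mul
    obtain ⟨t, ht⟩ := isConj_iff.1 h1
    obtain ⟨t, rfl⟩ := hsurj t
    refine ⟨rho m F t, ?_⟩
    have h2 : t * (a * (g * b * g⁻¹)) * t⁻¹ = a * b := by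
      apply hinj
      rw [map_mul π a b, ← ht]
      simp
    rw [← map_mul (rho m F) a b, ← h2]
    simp

end Cfsg.Agent.H27.AH.SpTwo
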